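import Mathlib
import Cfsg.Agent.Lib.Helper5.BF
import Cfsg.Agent.S0230

set_option autoImplicit false

namespace Cfsg.Agent.Lib.Helper5

open Nat in
theorem card_le_factorial_index {G : Type*} [Group G] [Finite G] [IsSimpleGroup G]
    (H : Subgroup G) (hH : H ≠ ⊤) : Nat.card G ≤ (H.index)! := by
  have hker : (MulAction.toPermHom G (G ⧸ H)).ker = ⊥ := by
    rcases (MulAction.toPermHom G (G ⧸ H)).normal_ker.eq_bot_or_eq_top with h | h
    · exact h
    · exfalso
      apply hH
      apply top_unique
      rw [← h, ← Subgroup.normalCore_eq_ker]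
      exact Subgroup.normalCore_le H
  have hinj : Function.Injective (MulAction.toPermHom G (G ⧸ H)) :=
    (MonoidHom.ker_eq_bot_iff _).mp hker
  have := Nat.card_le_card_of_injective _ hinj
  rw [Nat.card_perm] at this
  exact this

theorem card_le_invol_mul_cent {G : Type*} [Group G] [Finite G] (t : G) (ht : orderOf t = 2) :
    Nat.card G ≤ Nat.card {u : G // orderOf u = 2} * Nat.card (Subgroup.centralizer ({t} : Set G)) := by
  rw [← Cfsg.Agent.S0230.orbit_mul_cent t]
  apply Nat.mul_le_mul_right
  apply Nat.card_le_card_of_injective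
    (fun b : MulAction.orbit (ConjAct G) t => (⟨b.1, by
      have hb := ConjAct.mem_orbit_conjAct.mp b.2
      obtain ⟨c, hc⟩ := isConj_iff.mp hb
      have : orderOf ((MulAut.conj c) b.1) = orderOf b.1 := MulEquiv.orderOf_eq _ _
      rw [MulAut.conj_apply, hc, ht] at this
      exact this.symm⟩ : {u : G // orderOf u = 2}))
  intro b1 b2 h
  apply Subtype.ext
  exact congrArg (fun u : {u : G // orderOf u = 2} => u.1) h

end Cfsg.Agent.Lib.Helper5
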