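import Mathlib
import Cfsg.Agent.Lib.Helper5.Invol

set_option autoImplicit false

namespace Cfsg.Agent.Lib.Helper5

section
variable {G : Type*} [Group G]

/-- `a r^k = r^{-k} a` for natural exponents, `r = a b`. -/
theorem dih_swap_nat (a b : G) (ha : a * a = 1) (hb : b * b = 1) (k : ℕ) :
    a * ((a * b) ^ k)⁻¹ = (a * b) ^ k * a := by
  have := rot_swap a b ha hb (-(k : ℤ))
  rw [neg_neg, zpow_neg, zpow_natCast] at this
  exact this

theorem dih_even (a b : G) (ha : a * a = 1) (hb : b * b = 1) (k : ℕ) :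
    (a * b) ^ (2 * k) * a = (a * b) ^ k * a * ((a * b) ^ k)⁻¹ := by
  rw [mul_assoc ((a * b) ^ k) a, dih_swap_nat a b ha hb k, ← mul_assoc, ← pow_add, two_mul]

theorem dih_odd (a b : G) (ha : a * a = 1) (hb : b * b = 1) (k : ℕ) :
    (a * b) ^ (2 * k + 1) * a = ((a * b) ^ k * a) * b * ((a * b) ^ k * a)⁻¹ := by
  have hainv : a⁻¹ = a := inv_eq_of_mul_eq_one_left ha
  rw [mul_inv_rev, hainv]
  calc (a * b) ^ (2 * k + 1) * a = (a * b) ^ k * (a * b) * ((a * b) ^ k * a) := by
        rw [← mul_assoc, ← pow_succ, ← pow_add]; congr 2; omega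
    _ = (a * b) ^ k * (a * b) * (a * ((a * b) ^ k)⁻¹) := by rw [dih_swap_nat a b ha hb k]
    _ = (a * b) ^ k * a * b * (a * ((a * b) ^ k)⁻¹) := by group

/-- the central involution of a dihedral group of order `4m` -/
theorem dih_central (a b : G) (ha : a * a = 1) (hb : b * b = 1) (m : ℕ)
    (h : (a * b) ^ (2 * m) = 1) : Commute ((a * b) ^ m) a ∧ Commute ((a * b) ^ m) b := by
  have hinv : ((a * b) ^ m)⁻¹ = (a * b) ^ m := by
    apply inv_eq_of_mul_eq_one_left
    rw [← pow_add, ← two_mul, h]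
  have h1 : Commute ((a * b) ^ m) a := by
    have := dih_swap_nat a b ha hb m
    rw [hinv] at this
    exact this.symm
  refine ⟨h1, ?_⟩
  have hb' : b = a * (a * b) := by rw [← mul_assoc, ha, one_mul]
  have h2 : Commute ((a * b) ^ m) (a * b) := (Commute.refl (a * b)).pow_left m
  have h3 := h1.mul_right h2
  rwa [← hb'] at h3

/-- two involutions whose product has odd order are conjugate -/
theorem dih_conj_of_odd (a b : G) (ha : a * a = 1) (hb : b * b = 1) (k : ℕ)
    (h : (a * b) ^ (2 * k + 1) = 1) : ∃ c : G, c * b * c⁻¹ = a := by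
  refine ⟨(a * b) ^ k * a, ?_⟩
  rw [← dih_odd a b ha hb k, h, one_mul]

end

end Cfsg.Agent.Lib.Helper5
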