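import Mathlib

set_option autoImplicit false

namespace Cfsg.Agent.Lib.Helper5

/-- if `t` normalizes `K` and centralizes no non-identity element of `K`, then every element of
`K` is a commutator `k⁻¹ (t k t⁻¹)` -/
theorem fpf_surj {G : Type*} [Group G] [Finite G] (K : Subgroup G) (t : G)
    (hconj : ∀ k ∈ K, t * k * t⁻¹ ∈ K) (hfpf : ∀ k ∈ K, k * t = t * k → k = 1) :
    ∀ x ∈ K, ∃ k ∈ K, x = k⁻¹ * (t * k * t⁻¹) := by
  obtain ⟨f, hf⟩ : ∃ f : K → K, ∀ k : K, ((f k : K) : G) = k.1⁻¹ * (t * k.1 * t⁻¹) :=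
    ⟨fun k => ⟨k.1⁻¹ * (t * k.1 * t⁻¹), K.mul_mem (K.inv_mem k.2) (hconj k.1 k.2)⟩, fun k => rfl⟩
  have hinj : Function.Injective f := by
    intro k l hkl
    have h1 : k.1⁻¹ * (t * k.1 * t⁻¹) = l.1⁻¹ * (t * l.1 * t⁻¹) := by
      rw [← hf k, ← hf l, hkl]
    have h3 : l.1 * k.1⁻¹ = t * (l.1 * k.1⁻¹) * t⁻¹ := by
      calc l.1 * k.1⁻¹ = l.1 * (k.1⁻¹ * (t * k.1 * t⁻¹)) * (t * k.1 * t⁻¹)⁻¹ := by group
        _ = l.1 * (l.1⁻¹ * (t * l.1 * t⁻¹)) * (t * k.1 * t⁻¹)⁻¹ := by rw [h1]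
        _ = t * (l.1 * k.1⁻¹) * t⁻¹ := by group
    have h2 : (l.1 * k.1⁻¹) * t = t * (l.1 * k.1⁻¹) := by
      calc (l.1 * k.1⁻¹) * t = (t * (l.1 * k.1⁻¹) * t⁻¹) * t := by rw [← h3]
        _ = t * (l.1 * k.1⁻¹) := by group
    have h4 := hfpf _ (K.mul_mem l.2 (K.inv_mem k.2)) h2
    apply Subtype.ext
    have : l.1 = k.1 := by
      calc l.1 = (l.1 * k.1⁻¹) * k.1 := by group
        _ = k.1 := by rw [h4, one_mul]
    exact this.symm
  have hsurj : Function.Surjective f := Finite.surjective_of_injective hinj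
  intro x hx
  obtain ⟨k, hk⟩ := hsurj ⟨x, hx⟩
  exact ⟨k.1, k.2, by rw [← hf k, hk]⟩

/-- a fixed-point-free involution inverts -/
theorem fpf_inverts {G : Type*} [Group G] [Finite G] (K : Subgroup G) (t : G)
    (hconj : ∀ k ∈ K, t * k * t⁻¹ ∈ K) (htt : t * t = 1)
    (hfpf : ∀ k ∈ K, k * t = t * k → k = 1) : ∀ k ∈ K, t * k * t⁻¹ = k⁻¹ := by
  have htinv : t⁻¹ = t := inv_eq_of_mul_eq_one_left htt
  intro x hx
  obtain ⟨k, -, hx'⟩ := fpf_surj K t hconj hfpf x hx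
  rw [hx', htinv]
  calc t * (k⁻¹ * (t * k * t)) * t = t * k⁻¹ * t * k * (t * t) := by group
    _ = t * k⁻¹ * t * k := by rw [htt, mul_one]
    _ = (k⁻¹ * (t * k * t))⁻¹ := by
      simp only [mul_inv_rev, inv_inv, htinv]; group

/-- automorphism version: if `γ` fixes only `1`, every element is `h⁻¹ γ(h)` -/
theorem aut_fpf_surj {H : Type*} [Group H] [Finite H] (γ : MulAut H)
    (hfpf : ∀ h : H, γ h = h → h = 1) : ∀ x : H, ∃ h : H, x = h⁻¹ * γ h := by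
  have hinj : Function.Injective (fun h : H => h⁻¹ * γ h) := by
    intro k l hkl
    have h1 : k⁻¹ * γ k = l⁻¹ * γ l := hkl
    have h2 : γ (l * k⁻¹) = l * k⁻¹ := by
      rw [map_mul, map_inv]
      calc γ l * (γ k)⁻¹ = l * (l⁻¹ * γ l) * (γ k)⁻¹ := by group
        _ = l * (k⁻¹ * γ k) * (γ k)⁻¹ := by rw [h1]
        _ = l * k⁻¹ := by group
    have h4 := hfpf _ h2
    calc k = (l * k⁻¹)⁻¹ * l := by group
      _ = l := by rw [h4, inv_one, one_mul]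
  have hsurj := Finite.surjective_of_injective hinj
  intro x
  obtain ⟨h, hh⟩ := hsurj x
  exact ⟨h, hh.symm⟩

end Cfsg.Agent.Lib.Helper5
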