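import Mathlib

set_option autoImplicit false

namespace Cfsg.Agent.Lib.Helper5.GL2Syl

open Matrix

variable {F : Type*} [Field F]

/-- The determinant of the pair of vectors `v, w` of `F²`. -/
def dd (v w : Fin 2 → F) : F := v 0 * w 1 - v 1 * w 0

theorem dd_mulVec (h : Matrix (Fin 2) (Fin 2) F) (x y : Fin 2 → F) :
    dd (h *ᵥ x) (h *ᵥ y) = h.det * dd x y := by
  simp only [dd, Matrix.mulVec, dotProduct, Fin.sum_univ_two, Matrix.det_fin_two]
  ring

theorem gl_mul_inv' (g : GL (Fin 2) F) :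
    (g : Matrix (Fin 2) (Fin 2) F) * ((g⁻¹ : GL (Fin 2) F) : Matrix (Fin 2) (Fin 2) F) = 1 := by
  rw [← Units.val_mul, mul_inv_cancel]; rfl

theorem gl_inv_mul' (g : GL (Fin 2) F) :
    ((g⁻¹ : GL (Fin 2) F) : Matrix (Fin 2) (Fin 2) F) * (g : Matrix (Fin 2) (Fin 2) F) = 1 := by
  rw [← Units.val_mul, inv_mul_cancel]; rfl

theorem gl_det_ne_zero (g : GL (Fin 2) F) : (g : Matrix (Fin 2) (Fin 2) F).det ≠ 0 := by
  intro h
  have := congrArg Matrix.det (gl_mul_inv' g)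
  rw [Matrix.det_mul, h, zero_mul, Matrix.det_one] at this
  exact zero_ne_one this

theorem gl_mulVec_ne_zero (g : GL (Fin 2) F) (v : Fin 2 → F) (hv : v ≠ 0) :
    (g : Matrix (Fin 2) (Fin 2) F) *ᵥ v ≠ 0 := by
  intro h
  apply hv
  have := congrArg (fun x => ((g⁻¹ : GL (Fin 2) F) : Matrix (Fin 2) (Fin 2) F) *ᵥ x) h
  simpa only [Matrix.mulVec_mulVec, gl_inv_mul', Matrix.one_mulVec, Matrix.mulVec_zero] using this

/-- The unipotent subgroup fixing the nonzero vector `v`. -/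
def U (v : Fin 2 → F) : Subgroup (GL (Fin 2) F) where
  carrier := {a | (a : Matrix (Fin 2) (Fin 2) F) *ᵥ v = v ∧
    (a : Matrix (Fin 2) (Fin 2) F).det = 1}
  mul_mem' := by
    rintro a b ⟨ha, ha'⟩ ⟨hb, hb'⟩
    refine ⟨?_, ?_⟩
    · rw [Units.val_mul, ← Matrix.mulVec_mulVec, hb, ha]
    · rw [Units.val_mul, Matrix.det_mul, ha', hb', mul_one]
  one_mem' := by
    refine ⟨?_, ?_⟩
    · rw [Units.val_one, Matrix.one_mulVec]
    · rw [Units.val_one, Matrix.det_one]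
  inv_mem' := by
    rintro a ⟨ha, ha'⟩
    refine ⟨?_, ?_⟩
    · have := congrArg (fun x => ((a⁻¹ : GL (Fin 2) F) : Matrix (Fin 2) (Fin 2) F) *ᵥ x) ha
      simp only [Matrix.mulVec_mulVec, gl_inv_mul', Matrix.one_mulVec] at this
      exact this.symm
    · have : ((a⁻¹ : GL (Fin 2) F) : Matrix (Fin 2) (Fin 2) F).det *
          (a : Matrix (Fin 2) (Fin 2) F).det = 1 := by
        rw [← Matrix.det_mul, gl_inv_mul', Matrix.det_one]
      rw [ha', mul_one] at this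
      exact this

theorem mem_U (v : Fin 2 → F) (a : GL (Fin 2) F) :
    a ∈ U v ↔ ((a : Matrix (Fin 2) (Fin 2) F) *ᵥ v = v ∧
      (a : Matrix (Fin 2) (Fin 2) F).det = 1) := Iff.rfl

theorem fix_two (a : Matrix (Fin 2) (Fin 2) F) (v w : Fin 2 → F) (hd : dd v w ≠ 0)
    (hv : a *ᵥ v = v) (hw : a *ᵥ w = w) : a = 1 := by
  have h1 := congrFun hv 0
  have h2 := congrFun hv 1
  have h3 := congrFun hw 0
  have h4 := congrFun hw 1
  simp only [Matrix.mulVec, dotProduct, Fin.sum_univ_two] at h1 h2 h3 h4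
  unfold dd at hd
  have e00 : a 0 0 = 1 := by
    apply mul_right_cancel₀ hd
    linear_combination w 1 * h1 - v 1 * h3
  have e01 : a 0 1 = 0 := by
    have : a 0 1 * (v 0 * w 1 - v 1 * w 0) = 0 := by linear_combination -(w 0 * h1) + v 0 * h3
    exact (mul_eq_zero.1 this).resolve_right hd
  have e10 : a 1 0 = 0 := by
    have : a 1 0 * (v 0 * w 1 - v 1 * w 0) = 0 := by linear_combination w 1 * h2 - v 1 * h4
    exact (mul_eq_zero.1 this).resolve_right hd
  have e11 : a 1 1 = 1 := by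
    apply mul_right_cancel₀ hd
    linear_combination -(w 0 * h2) + v 0 * h4
  ext i j
  fin_cases i <;> fin_cases j <;> simp [e00, e01, e10, e11]

theorem U_inf (v w : Fin 2 → F) (hd : dd v w ≠ 0) : U v ⊓ U w = ⊥ := by
  rw [eq_bot_iff]
  rintro a ⟨ha, hb⟩
  rw [Subgroup.mem_bot]
  apply Units.ext
  exact fix_two _ v w hd ha.1 hb.1

theorem prop_of_dd (v w : Fin 2 → F) (hv : v ≠ 0) (hw : w ≠ 0) (hd : dd v w = 0) :
    ∃ c : F, c ≠ 0 ∧ w = c • v := by
  unfold dd at hd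
  by_cases h0 : v 0 = 0
  · have h1 : v 1 ≠ 0 := by
      intro h1; apply hv; ext i; fin_cases i <;> simp [h0, h1]
    have hw0 : w 0 = 0 := by
      have : v 1 * w 0 = 0 := by linear_combination -hd + h0 * w 1
      exact (mul_eq_zero.1 this).resolve_left h1
    refine ⟨w 1 / v 1, ?_, ?_⟩
    · intro hc
      have hw1 : w 1 = 0 := by
        rcases div_eq_zero_iff.1 hc with h | h
        · exact h
        · exact absurd h h1
      apply hw; ext i; fin_cases i <;> simp [hw0, hw1]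
    · ext i; fin_cases i
      · simp [hw0, h0]
      · simp [div_mul_cancel₀ _ h1]
  · have hw1 : w 1 = w 0 / v 0 * v 1 := by
      field_simp
      linear_combination hd
    refine ⟨w 0 / v 0, ?_, ?_⟩
    · intro hc
      have hw0 : w 0 = 0 := by
        rcases div_eq_zero_iff.1 hc with h | h
        · exact h
        · exact absurd h h0
      have hw1' : w 1 = 0 := by rw [hw1, hw0]; simp
      apply hw; ext i; fin_cases i <;> simp [hw0, hw1']
    · ext i; fin_cases i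
      · simp [div_mul_cancel₀ _ h0]
      · simpa using hw1

theorem U_le_smul (v : Fin 2 → F) (c : F) : U v ≤ U (c • v) := by
  rintro a ⟨ha, ha'⟩
  exact ⟨by rw [Matrix.mulVec_smul, ha], ha'⟩

theorem U_eq_of_dd (v w : Fin 2 → F) (hv : v ≠ 0) (hw : w ≠ 0) (hd : dd v w = 0) :
    U v = U w := by
  obtain ⟨c, hc, rfl⟩ := prop_of_dd v w hv hw hd
  apply le_antisymm (U_le_smul v c)
  have := U_le_smul (c • v) c⁻¹
  rwa [smul_smul, inv_mul_cancel₀ hc, one_smul] at this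

theorem U_ne_bot (v : Fin 2 → F) (hv : v ≠ 0) : ∃ a ∈ U v, a ≠ 1 := by
  have hdet : (!![1 - v 0 * v 1, v 0 * v 0; -(v 1 * v 1), 1 + v 1 * v 0] :
      Matrix (Fin 2) (Fin 2) F).det = 1 := by
    rw [Matrix.det_fin_two_of]; ring
  refine ⟨Matrix.GeneralLinearGroup.mkOfDetNeZero
    !![1 - v 0 * v 1, v 0 * v 0; -(v 1 * v 1), 1 + v 1 * v 0] (by rw [hdet]; exact one_ne_zero),
    ⟨?_, hdet⟩, ?_⟩
  · show (!![1 - v 0 * v 1, v 0 * v 0; -(v 1 * v 1), 1 + v 1 * v 0] :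
      Matrix (Fin 2) (Fin 2) F) *ᵥ v = v
    ext i; fin_cases i
    · simp [Matrix.mulVec, dotProduct, Fin.sum_univ_two]; ring
    · simp [Matrix.mulVec, dotProduct, Fin.sum_univ_two]; ring
  · intro h
    have h' : (!![1 - v 0 * v 1, v 0 * v 0; -(v 1 * v 1), 1 + v 1 * v 0] :
      Matrix (Fin 2) (Fin 2) F) = 1 := congrArg Units.val h
    have e1 := congrFun (congrFun h' 0) 1
    have e2 := congrFun (congrFun h' 1) 0
    simp at e1 e2
    apply hv; ext i; fin_cases i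
    · simpa using e1
    · simpa using e2

theorem U_conj (g a : GL (Fin 2) F) (v : Fin 2 → F) (ha : a ∈ U v) :
    g * a * g⁻¹ ∈ U ((g : Matrix (Fin 2) (Fin 2) F) *ᵥ v) := by
  obtain ⟨h1, h2⟩ := ha
  refine ⟨?_, ?_⟩
  · rw [Units.val_mul, Units.val_mul, Matrix.mulVec_mulVec, Matrix.mul_assoc, Matrix.mul_assoc,
      gl_inv_mul', Matrix.mul_one, ← Matrix.mulVec_mulVec, h1]
  · rw [Units.val_mul, Units.val_mul, Matrix.det_mul, Matrix.det_mul, h2, mul_one,
      ← Matrix.det_mul, gl_mul_inv', Matrix.det_one]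

theorem U_conj_iff (g a : GL (Fin 2) F) (v : Fin 2 → F) :
    a ∈ U v ↔ g * a * g⁻¹ ∈ U ((g : Matrix (Fin 2) (Fin 2) F) *ᵥ v) := by
  refine ⟨U_conj g a v, fun h => ?_⟩
  have := U_conj g⁻¹ _ _ h
  rw [Matrix.mulVec_mulVec, gl_inv_mul', Matrix.one_mulVec] at this
  have e : g⁻¹ * (g * a * g⁻¹) * g⁻¹⁻¹ = a := by group
  rwa [e] at this

theorem mem_normalizer_U (v : Fin 2 → F) (hv : v ≠ 0) (g : GL (Fin 2) F) :
    g ∈ Subgroup.normalizer ((U v : Subgroup (GL (Fin 2) F)) : Set (GL (Fin 2) F)) ↔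
      dd v ((g : Matrix (Fin 2) (Fin 2) F) *ᵥ v) = 0 := by
  rw [Subgroup.mem_normalizer_iff]
  constructor
  · intro h
    by_contra hd
    obtain ⟨a, ha, ha1⟩ := U_ne_bot v hv
    have h1 : g * a * g⁻¹ ∈ U v := (h a).1 ha
    have h2 : g * a * g⁻¹ ∈ U ((g : Matrix (Fin 2) (Fin 2) F) *ᵥ v) := U_conj g a v ha
    have h3 : g * a * g⁻¹ ∈ U v ⊓ U ((g : Matrix (Fin 2) (Fin 2) F) *ᵥ v) := ⟨h1, h2⟩
    rw [U_inf _ _ hd, Subgroup.mem_bot] at h3
    apply ha1
    have : a = g⁻¹ * (g * a * g⁻¹) * g := by group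
    rw [this, h3]; group
  · intro hd a
    have e := U_eq_of_dd v _ hv (gl_mulVec_ne_zero g v hv) hd
    rw [U_conj_iff g a v, ← e]

theorem ch2 (N : Matrix (Fin 2) (Fin 2) F) :
    N * N = N.trace • N - N.det • (1 : Matrix (Fin 2) (Fin 2) F) := by
  ext i j
  fin_cases i <;> fin_cases j <;>
    simp [Matrix.mul_apply, Fin.sum_univ_two, Matrix.det_fin_two, Matrix.trace_fin_two] <;> ring

theorem sq_zero_of_mem_U (v : Fin 2 → F) (hv : v ≠ 0) (a : Matrix (Fin 2) (Fin 2) F)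
    (h1 : a *ᵥ v = v) (h2 : a.det = 1) : (a - 1) * (a - 1) = 0 := by
  have hc := ch2 a
  have htr : a.trace = 2 := by
    have := congrArg (fun M : Matrix (Fin 2) (Fin 2) F => M *ᵥ v) hc
    simp only [← Matrix.mulVec_mulVec, h1, Matrix.sub_mulVec, Matrix.smul_mulVec,
      Matrix.one_mulVec, h2, one_smul] at this
    have h3 : (a.trace - 2) • v = 0 := by
      rw [sub_smul, two_smul]
      rw [sub_eq_zero]
      rw [eq_sub_iff_add_eq] at this
      exact this.symm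
    rcases smul_eq_zero.1 h3 with h | h
    · exact sub_eq_zero.1 h
    · exact absurd h hv
  rw [htr, h2] at hc
  rw [sub_mul, mul_sub, mul_sub, hc]
  simp only [Matrix.mul_one, Matrix.one_mul, one_smul, two_smul]
  abel

theorem U_isPGroup (p : ℕ) [Fact p.Prime] [CharP F p] (v : Fin 2 → F) (hv : v ≠ 0) :
    IsPGroup p (U v) := by
  rintro ⟨a, ha⟩
  refine ⟨1, ?_⟩
  apply Subtype.ext
  apply Units.ext
  show ((a ^ p ^ 1 : GL (Fin 2) F) : Matrix (Fin 2) (Fin 2) F) = 1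
  rw [pow_one, Units.val_pow_eq_pow_val]
  have hsq := sq_zero_of_mem_U v hv _ ha.1 ha.2
  have hp2 : 2 ≤ p := (Fact.out : p.Prime).two_le
  have e : (a : Matrix (Fin 2) (Fin 2) F) = 1 + ((a : Matrix (Fin 2) (Fin 2) F) - 1) := by abel
  rw [e, add_pow_char_of_commute p (Commute.one_left _), one_pow]
  have : ((a : Matrix (Fin 2) (Fin 2) F) - 1) ^ p = 0 := by
    obtain ⟨r, rfl⟩ : ∃ r, p = 2 + r := ⟨p - 2, by omega⟩
    rw [pow_add, pow_two, hsq, zero_mul]
  rw [this, add_zero]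

/-- The action of `GL₂(F)` on nonzero vectors. -/
@[reducible] def actNZ : MulAction (GL (Fin 2) F) {v : Fin 2 → F // v ≠ 0} where
  smul g v := ⟨(g : Matrix (Fin 2) (Fin 2) F) *ᵥ v.1, gl_mulVec_ne_zero g v.1 v.2⟩
  one_smul v := by
    apply Subtype.ext
    show ((1 : GL (Fin 2) F) : Matrix (Fin 2) (Fin 2) F) *ᵥ v.1 = v.1
    rw [Units.val_one, Matrix.one_mulVec]
  mul_smul g h v := by
    apply Subtype.ext
    show ((g * h : GL (Fin 2) F) : Matrix (Fin 2) (Fin 2) F) *ᵥ v.1 =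
      (g : Matrix (Fin 2) (Fin 2) F) *ᵥ ((h : Matrix (Fin 2) (Fin 2) F) *ᵥ v.1)
    rw [Units.val_mul, Matrix.mulVec_mulVec]

theorem card_nz [Fintype F] : Nat.card {v : Fin 2 → F // v ≠ 0} = Fintype.card F ^ 2 - 1 := by
  classical
  rw [Nat.card_eq_fintype_card, Fintype.card_subtype_compl, Fintype.card_subtype_eq]
  simp

theorem sylow_eq_U [Fintype F] (p : ℕ) [Fact p.Prime] [CharP F p]
    (P : Sylow p (GL (Fin 2) F)) :
    ∃ v : Fin 2 → F, v ≠ 0 ∧ (P : Subgroup (GL (Fin 2) F)) = U v := by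
  classical
  let act : MulAction (GL (Fin 2) F) {v : Fin 2 → F // v ≠ 0} := actNZ
  have hcard : ¬ p ∣ Nat.card {v : Fin 2 → F // v ≠ 0} := by
    rw [card_nz]
    obtain ⟨n, hp, hn⟩ := FiniteField.card F p
    rw [hn]
    intro hdvd
    have h1 : p ∣ (p ^ (n : ℕ)) ^ 2 := by
      rw [← pow_mul]
      exact dvd_pow_self p (by positivity)
    have h2 : 1 ≤ (p ^ (n : ℕ)) ^ 2 := Nat.one_le_pow _ _ (pow_pos hp.pos _)
    have h3 : p ∣ 1 := by
      have := Nat.dvd_sub h1 hdvd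
      rwa [Nat.sub_sub_self h2] at this
    exact hp.one_lt.ne' (Nat.dvd_one.1 h3)
  obtain ⟨v, hv⟩ := P.isPGroup'.nonempty_fixed_point_of_prime_not_dvd_card
    {v : Fin 2 → F // v ≠ 0} hcard
  refine ⟨v.1, v.2, ?_⟩
  have hle : (P : Subgroup (GL (Fin 2) F)) ≤ U v.1 := by
    intro a ha
    refine ⟨?_, ?_⟩
    · have := hv ⟨a, ha⟩
      exact congrArg Subtype.val this
    · obtain ⟨k, hk⟩ := P.isPGroup' ⟨a, ha⟩
      have hk' : a ^ (p ^ k) = 1 := by
        have := congrArg Subtype.val hk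
        simpa using this
      have hk2 : (a : Matrix (Fin 2) (Fin 2) F) ^ (p ^ k) = 1 := by
        have := congrArg (fun x : GL (Fin 2) F => (x : Matrix (Fin 2) (Fin 2) F)) hk'
        simpa using this
      have hk3 : (a : Matrix (Fin 2) (Fin 2) F).det ^ (p ^ k) = 1 := by
        rw [← Matrix.det_pow, hk2, Matrix.det_one]
      have hk4 : ((a : Matrix (Fin 2) (Fin 2) F).det - 1) ^ (p ^ k) = 0 := by
        rw [sub_pow_char_pow, hk3, one_pow, sub_self]
      exact sub_eq_zero.1 (pow_eq_zero_iff (pow_pos (Fact.out : p.Prime).pos k).ne' |>.1 hk4)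
  exact (P.is_maximal' (U_isPGroup p v.1 v.2) hle).symm

theorem exists_h (v : Fin 2 → F) (hv : v ≠ 0) :
    ∃ h : GL (Fin 2) F, (h : Matrix (Fin 2) (Fin 2) F) *ᵥ ![1, 0] = v := by
  by_cases h0 : v 0 = 0
  · have h1 : v 1 ≠ 0 := by
      intro h1; apply hv; ext i; fin_cases i <;> simp [h0, h1]
    refine ⟨Matrix.GeneralLinearGroup.mkOfDetNeZero !![v 0, 1; v 1, 0]
      (by rw [Matrix.det_fin_two_of]; simpa using h1), ?_⟩
    show (!![v 0, 1; v 1, 0] : Matrix (Fin 2) (Fin 2) F) *ᵥ ![1, 0] = v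
    ext i; fin_cases i <;> simp [Matrix.mulVec, dotProduct, Fin.sum_univ_two]
  · refine ⟨Matrix.GeneralLinearGroup.mkOfDetNeZero !![v 0, 0; v 1, 1]
      (by rw [Matrix.det_fin_two_of]; simpa using h0), ?_⟩
    show (!![v 0, 0; v 1, 1] : Matrix (Fin 2) (Fin 2) F) *ᵥ ![1, 0] = v
    ext i; fin_cases i <;> simp [Matrix.mulVec, dotProduct, Fin.sum_univ_two]

/-- Upper triangular invertible matrices. -/
def borelEquiv : {g : GL (Fin 2) F // (g : Matrix (Fin 2) (Fin 2) F) 1 0 = 0} ≃ Fˣ × F × Fˣ where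
  toFun g := (Units.mk0 ((g.1 : Matrix (Fin 2) (Fin 2) F) 0 0) (by
      intro h
      have := gl_det_ne_zero g.1
      rw [Matrix.det_fin_two, g.2, h] at this
      simp at this),
    (g.1 : Matrix (Fin 2) (Fin 2) F) 0 1,
    Units.mk0 ((g.1 : Matrix (Fin 2) (Fin 2) F) 1 1) (by
      intro h
      have := gl_det_ne_zero g.1
      rw [Matrix.det_fin_two, g.2, h] at this
      simp at this))
  invFun t := ⟨Matrix.GeneralLinearGroup.mkOfDetNeZero !![(t.1 : F), t.2.1; 0, (t.2.2 : F)]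
    (by rw [Matrix.det_fin_two_of]; simp), rfl⟩
  left_inv g := by
    apply Subtype.ext
    apply Units.ext
    show (!![(g.1 : Matrix (Fin 2) (Fin 2) F) 0 0, (g.1 : Matrix (Fin 2) (Fin 2) F) 0 1; 0,
      (g.1 : Matrix (Fin 2) (Fin 2) F) 1 1] : Matrix (Fin 2) (Fin 2) F) = g.1
    ext i j
    fin_cases i <;> fin_cases j <;> simp [g.2]
  right_inv t := by
    obtain ⟨a, b, c⟩ := t
    refine Prod.ext ?_ (Prod.ext ?_ ?_)
    · apply Units.ext; rfl
    · rfl
    · apply Units.ext; rfl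

theorem card_borel [Fintype F] :
    Nat.card {g : GL (Fin 2) F // (g : Matrix (Fin 2) (Fin 2) F) 1 0 = 0} =
      (Fintype.card F - 1) * (Fintype.card F * (Fintype.card F - 1)) := by
  rw [Nat.card_congr borelEquiv, Nat.card_prod, Nat.card_prod, Nat.card_units,
    Nat.card_eq_fintype_card]

theorem card_line_stab [Fintype F] (v : Fin 2 → F) (hv : v ≠ 0) :
    Nat.card {g : GL (Fin 2) F // dd v ((g : Matrix (Fin 2) (Fin 2) F) *ᵥ v) = 0} =
      (Fintype.card F - 1) * (Fintype.card F * (Fintype.card F - 1)) := by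
  obtain ⟨h, rfl⟩ := exists_h v hv
  rw [← card_borel]
  refine Nat.card_congr (Equiv.subtypeEquiv (MulAut.conj h⁻¹).toEquiv ?_)
  intro g
  show _ ↔ ((h⁻¹ * g * h⁻¹⁻¹ : GL (Fin 2) F) : Matrix (Fin 2) (Fin 2) F) 1 0 = 0
  rw [inv_inv]
  have e : (g : Matrix (Fin 2) (Fin 2) F) *ᵥ ((h : Matrix (Fin 2) (Fin 2) F) *ᵥ ![1, 0]) =
      (h : Matrix (Fin 2) (Fin 2) F) *ᵥ
        (((h⁻¹ * g * h : GL (Fin 2) F) : Matrix (Fin 2) (Fin 2) F) *ᵥ ![1, 0]) := by
    rw [Units.val_mul, Units.val_mul, Matrix.mulVec_mulVec, Matrix.mulVec_mulVec,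
      ← Matrix.mul_assoc, ← Matrix.mul_assoc, gl_mul_inv', Matrix.one_mul]
  rw [e, dd_mulVec]
  have e2 : dd ![1, 0] (((h⁻¹ * g * h : GL (Fin 2) F) : Matrix (Fin 2) (Fin 2) F) *ᵥ ![1, 0]) =
      ((h⁻¹ * g * h : GL (Fin 2) F) : Matrix (Fin 2) (Fin 2) F) 1 0 := by
    simp [dd, Matrix.mulVec, dotProduct, Fin.sum_univ_two]
  rw [e2, mul_eq_zero]
  constructor
  · rintro (h0 | h0)
    · exact absurd h0 (gl_det_ne_zero h)
    · exact h0
  · intro h0; exact Or.inr h0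

theorem card_normalizer_sylow [Fintype F] (p : ℕ) [Fact p.Prime] [CharP F p]
    (P : Sylow p (GL (Fin 2) F)) :
    Nat.card (Subgroup.normalizer ((P : Subgroup (GL (Fin 2) F)) : Set (GL (Fin 2) F))) =
      (Fintype.card F - 1) * (Fintype.card F * (Fintype.card F - 1)) := by
  obtain ⟨v, hv, hP⟩ := sylow_eq_U p P
  rw [hP, ← card_line_stab v hv]
  exact Nat.card_congr (Equiv.subtypeEquivRight (fun g => mem_normalizer_U v hv g))

end Cfsg.Agent.Lib.Helper5.GL2Syl
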