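import Mathlib
import Cfsg.Prelude.Def_Classical
import Cfsg.Agent.S0243

set_option autoImplicit false

namespace Cfsg.Agent.Lib.Helper5.Herm

open Matrix

variable {F : Type*} [Field F] [Fintype F] {q : ℕ}

/-- Frobenius setup: from `|F| = q²` we get the ring hom `a ↦ a ^ q`, an involution. -/
theorem frob_setup (hF : Fintype.card F = q ^ 2) :
    ∃ φ : F →+* F, (∀ a, φ a = a ^ q) ∧ (∀ a, φ (φ a) = a) ∧ 2 ≤ q := by
  classical
  obtain ⟨m, hp, hcard⟩ := FiniteField.card F (ringChar F)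
  have hfact : Fact (ringChar F).Prime := ⟨hp⟩
  have hchar : CharP F (ringChar F) := ringChar.charP F
  have hqdvd : q ∣ ringChar F ^ (m : ℕ) := by
    rw [← hcard, hF]
    exact Dvd.intro_left q (by ring)
  obtain ⟨k, -, hqk⟩ := (Nat.dvd_prime_pow hp).mp hqdvd
  have hφ : ∀ a : F, iterateFrobenius F (ringChar F) k a = a ^ q := by
    intro a
    rw [iterateFrobenius_def, hqk]
  refine ⟨iterateFrobenius F (ringChar F) k, hφ, ?_, ?_⟩
  · intro a
    rw [hφ, hφ, ← pow_mul, ← sq, ← hF]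
    exact FiniteField.pow_card a
  · have h2 : 2 ≤ Fintype.card F := Fintype.one_lt_card
    rw [hF] at h2
    by_contra hq
    have : q ≤ 1 := by omega
    have : q ^ 2 ≤ 1 ^ 2 := Nat.pow_le_pow_left this 2
    omega

omit [Fintype F] in
theorem herm_eq (φ : F →+* F) (hφ : ∀ a, φ a = a ^ q) (n : ℕ) (u w : Fin n → F) :
    Cfsg.hermForm n F q u w = ∑ i, u i * φ (w i) := by
  simp only [Cfsg.hermForm, hφ]

theorem herm_fix (hF : Fintype.card F = q ^ 2) (n : ℕ) (v : Fin n → F) :
    (Cfsg.hermForm n F q v v) ^ q = Cfsg.hermForm n F q v v := by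
  obtain ⟨φ, hφ, hφφ, -⟩ := frob_setup hF
  rw [← hφ, herm_eq φ hφ, map_sum]
  refine Finset.sum_congr rfl fun i _ => ?_
  rw [map_mul, hφφ, mul_comm]

theorem neg_pow_q (hF : Fintype.card F = q ^ 2) (y : F) : (-y) ^ q = -(y ^ q) := by
  obtain ⟨φ, hφ, hφφ, -⟩ := frob_setup hF
  rw [← hφ, ← hφ, map_neg]

theorem norm_fix (hF : Fintype.card F = q ^ 2) (x : F) : (x ^ (q + 1)) ^ q = x ^ (q + 1) := by
  have h1 : x ^ (q ^ 2) = x := by rw [← hF]; exact FiniteField.pow_card x
  calc (x ^ (q + 1)) ^ q = x ^ (q ^ 2) * x ^ q := by rw [← pow_mul, ← pow_add]; congr 1; ring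
    _ = x ^ (q + 1) := by rw [h1, pow_succ]; ring

/-- The norm map is onto the non-zero elements of the fixed field. -/
theorem exists_norm (hF : Fintype.card F = q ^ 2) (c : F) (hc : c ^ q = c) (hc0 : c ≠ 0) :
    ∃ l : F, l ≠ 0 ∧ l ^ (q + 1) = c := by
  classical
  obtain ⟨φ, hφ, hφφ, hq2⟩ := frob_setup hF
  obtain ⟨g, hg⟩ := IsCyclic.exists_generator (α := Fˣ)
  have hord : orderOf g = q ^ 2 - 1 := by
    rw [orderOf_eq_card_of_forall_mem_zpowers hg, Nat.card_eq_fintype_card, Fintype.card_units, hF]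
  have hmem : Units.mk0 c hc0 ∈ Submonoid.powers g := by
    rw [mem_powers_iff_mem_zpowers]; exact hg _
  obtain ⟨j, hj⟩ := hmem
  change g ^ j = Units.mk0 c hc0 at hj
  have hc1 : c ^ (q - 1) = 1 := by
    have : c ^ (q - 1) * c = 1 * c := by
      rw [← pow_succ, one_mul]
      have : q - 1 + 1 = q := by omega
      rw [this, hc]
    exact mul_right_cancel₀ hc0 this
  have hu1 : (Units.mk0 c hc0) ^ (q - 1) = 1 := by
    apply Units.ext
    rw [Units.val_pow_eq_pow_val, Units.val_mk0, hc1]; rfl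
  rw [← hj, ← pow_mul, ← orderOf_dvd_iff_pow_eq_one, hord] at hu1
  have hfac : q ^ 2 - 1 = (q + 1) * (q - 1) := by
    obtain ⟨r, rfl⟩ : ∃ r, q = r + 1 := ⟨q - 1, by omega⟩
    simp only [Nat.add_sub_cancel]
    apply Nat.sub_eq_of_eq_add
    ring
  rw [hfac] at hu1
  have hdvd : (q + 1) ∣ j := Nat.dvd_of_mul_dvd_mul_right (by omega) hu1
  obtain ⟨t, rfl⟩ := hdvd
  refine ⟨((g ^ t : Fˣ) : F), Units.ne_zero _, ?_⟩
  have : ((g ^ t) ^ (q + 1) : Fˣ) = Units.mk0 c hc0 := by
    rw [← pow_mul, mul_comm t, hj]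
  have := congrArg Units.val this
  rwa [Units.val_pow_eq_pow_val, Units.val_mk0] at this

theorem card_fixed_ne_zero (hF : Fintype.card F = q ^ 2) :
    Nat.card {c : F // c ≠ 0 ∧ c ^ q = c} = q - 1 := by
  classical
  obtain ⟨φ, hφ, hφφ, hq2⟩ := frob_setup hF
  have hkey : ∀ c : F, c ≠ 0 → (c ^ q = c ↔ c ^ (q - 1) = 1) := by
    intro c hc0
    have e : c ^ q = c ^ (q - 1) * c := by
      rw [← pow_succ]; congr 1; omega
    constructor
    · intro h
      have : c ^ (q - 1) * c = 1 * c := by rw [← e, one_mul, h]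
      exact mul_right_cancel₀ hc0 this
    · intro h
      rw [e, h, one_mul]
  have e : {c : F // c ≠ 0 ∧ c ^ q = c} ≃ rootsOfUnity (q - 1) F :=
    { toFun := fun c => ⟨Units.mk0 c.1 c.2.1, by
        rw [mem_rootsOfUnity]
        apply Units.ext
        rw [Units.val_pow_eq_pow_val, Units.val_mk0]
        exact (hkey c.1 c.2.1).1 c.2.2⟩
      invFun := fun u => ⟨(u.1 : F), Units.ne_zero _, by
        rw [hkey _ (Units.ne_zero _)]
        have := u.2
        rw [mem_rootsOfUnity] at this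
        have := congrArg Units.val this
        rwa [Units.val_pow_eq_pow_val] at this⟩
      left_inv := fun c => rfl
      right_inv := fun u => by
        apply Subtype.ext
        apply Units.ext
        rfl }
  rw [Nat.card_congr e, Cfsg.Agent.S0243.card_rootsOfUnity_field, hF]
  apply Nat.gcd_eq_left
  obtain ⟨r, rfl⟩ : ∃ r, q = r + 1 := ⟨q - 1, by omega⟩
  simp only [Nat.add_sub_cancel]
  refine ⟨r + 2, ?_⟩
  apply Nat.sub_eq_of_eq_add
  ring

omit [Fintype F] in
theorem scale (n : ℕ) (l : F) (hl : l ≠ 0) (c : F) :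
    Nat.card {v : Fin n → F // Cfsg.hermForm n F q v v = l ^ (q + 1) * c} =
      Nat.card {v : Fin n → F // Cfsg.hermForm n F q v v = c} := by
  have key : ∀ (a : F) (v : Fin n → F), Cfsg.hermForm n F q (a • v) (a • v) =
      a ^ (q + 1) * Cfsg.hermForm n F q v v := by
    intro a v
    simp only [Cfsg.hermForm, Pi.smul_apply, smul_eq_mul, Finset.mul_sum]
    refine Finset.sum_congr rfl fun i _ => ?_
    rw [mul_pow, pow_succ]; ring
  refine Nat.card_congr
    { toFun := fun v => ⟨l⁻¹ • v.1, by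
        have h1 := key l (l⁻¹ • v.1)
        rw [smul_smul, mul_inv_cancel₀ hl, one_smul, v.2] at h1
        exact (mul_left_cancel₀ (pow_ne_zero _ hl) h1).symm⟩
      invFun := fun v => ⟨l • v.1, by rw [key, v.2]⟩
      left_inv := fun v => by
        apply Subtype.ext
        show l • l⁻¹ • v.1 = v.1
        rw [smul_smul, mul_inv_cancel₀ hl, one_smul]
      right_inv := fun v => by
        apply Subtype.ext
        show l⁻¹ • l • v.1 = v.1
        rw [smul_smul, inv_mul_cancel₀ hl, one_smul] }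

theorem card_eq_one_of (hF : Fintype.card F = q ^ 2) (n : ℕ) (c : F) (hc : c ^ q = c)
    (hc0 : c ≠ 0) :
    Nat.card {v : Fin n → F // Cfsg.hermForm n F q v v = c} =
      Nat.card {v : Fin n → F // Cfsg.hermForm n F q v v = 1} := by
  obtain ⟨l, hl, rfl⟩ := exists_norm hF c hc hc0
  have := scale (q := q) n l hl 1
  rwa [mul_one] at this

theorem card_zero_of_not_fix (hF : Fintype.card F = q ^ 2) (n : ℕ) (c : F) (hc : c ^ q ≠ c) :
    Nat.card {v : Fin n → F // Cfsg.hermForm n F q v v = c} = 0 := by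
  have : IsEmpty {v : Fin n → F // Cfsg.hermForm n F q v v = c} := by
    constructor
    rintro ⟨v, hv⟩
    apply hc
    rw [← hv]
    exact herm_fix hF n v
  exact Nat.card_of_isEmpty

theorem total (hF : Fintype.card F = q ^ 2) (n : ℕ) :
    Nat.card {v : Fin n → F // Cfsg.hermForm n F q v v = 0} +
      (q - 1) * Nat.card {v : Fin n → F // Cfsg.hermForm n F q v v = 1} = q ^ (2 * n) := by
  classical
  have h1 : Nat.card (Fin n → F) = q ^ (2 * n) := by
    rw [Nat.card_eq_fintype_card, Fintype.card_fun, Fintype.card_fin, hF, ← pow_mul]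
  rw [← h1, ← Nat.card_congr (Equiv.sigmaFiberEquiv (fun v : Fin n → F => Cfsg.hermForm n F q v v)),
    Nat.card_sigma]
  have h2 : ∀ c : F, Nat.card {v : Fin n → F // Cfsg.hermForm n F q v v = c} =
      if c = 0 then Nat.card {v : Fin n → F // Cfsg.hermForm n F q v v = 0} else
        (if c ^ q = c then Nat.card {v : Fin n → F // Cfsg.hermForm n F q v v = 1} else 0) := by
    intro c
    by_cases hc0 : c = 0
    · rw [if_pos hc0, hc0]
    · rw [if_neg hc0]
      by_cases hc : c ^ q = c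
      · rw [if_pos hc, card_eq_one_of hF n c hc hc0]
      · rw [if_neg hc, card_zero_of_not_fix hF n c hc]
  rw [Finset.sum_congr rfl (fun c _ => h2 c), ← Finset.add_sum_erase Finset.univ _ (Finset.mem_univ (0 : F))]
  rw [if_pos rfl]
  congr 1
  have h3 : ∀ c ∈ (Finset.univ : Finset F).erase 0,
      (if c = 0 then Nat.card {v : Fin n → F // Cfsg.hermForm n F q v v = 0} else
        (if c ^ q = c then Nat.card {v : Fin n → F // Cfsg.hermForm n F q v v = 1} else 0)) =
      (if c ^ q = c then Nat.card {v : Fin n → F // Cfsg.hermForm n F q v v = 1} else 0) := by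
    intro c hc
    rw [if_neg (Finset.ne_of_mem_erase hc)]
  rw [Finset.sum_congr rfl h3, ← Finset.sum_filter, Finset.sum_const, smul_eq_mul]
  congr 1
  rw [← card_fixed_ne_zero hF, Nat.card_eq_fintype_card, Fintype.card_subtype]
  congr 1
  ext c
  simp

theorem rec0 (hF : Fintype.card F = q ^ 2) (n : ℕ) :
    Nat.card {v : Fin (n + 1) → F // Cfsg.hermForm (n + 1) F q v v = 0} =
      Nat.card {v : Fin n → F // Cfsg.hermForm n F q v v = 0} +
        (q ^ 2 - 1) * Nat.card {v : Fin n → F // Cfsg.hermForm n F q v v = 1} := by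
  classical
  have hsplit : ∀ v : Fin (n + 1) → F, Cfsg.hermForm (n + 1) F q v v =
      v 0 ^ (q + 1) + Cfsg.hermForm n F q (Fin.tail v) (Fin.tail v) := by
    intro v
    simp only [Cfsg.hermForm]
    rw [Fin.sum_univ_succ, pow_succ, mul_comm (v 0 ^ q)]
    rfl
  have e : {v : Fin (n + 1) → F // Cfsg.hermForm (n + 1) F q v v = 0} ≃
      Σ x : F, {w : Fin n → F // Cfsg.hermForm n F q w w = -(x ^ (q + 1))} :=
    { toFun := fun v => ⟨v.1 0, ⟨Fin.tail v.1, by
        have := v.2
        rw [hsplit] at this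
        exact eq_neg_of_add_eq_zero_right this⟩⟩
      invFun := fun p => ⟨Fin.cons p.1 p.2.1, by
        rw [hsplit, Fin.cons_zero, Fin.tail_cons, p.2.2, add_neg_cancel]⟩
      left_inv := fun v => by
        apply Subtype.ext
        exact Fin.cons_self_tail v.1
      right_inv := fun p => by
        obtain ⟨x, w, hw⟩ := p
        rfl }
  rw [Nat.card_congr e, Nat.card_sigma,
    ← Finset.add_sum_erase Finset.univ _ (Finset.mem_univ (0 : F))]
  congr 1
  · have : -((0 : F) ^ (q + 1)) = 0 := by simp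
    rw [this]
  · have h3 : ∀ x ∈ (Finset.univ : Finset F).erase 0,
        Nat.card {w : Fin n → F // Cfsg.hermForm n F q w w = -(x ^ (q + 1))} =
        Nat.card {v : Fin n → F // Cfsg.hermForm n F q v v = 1} := by
      intro x hx
      have hx0 : x ≠ 0 := Finset.ne_of_mem_erase hx
      apply card_eq_one_of hF
      · rw [neg_pow_q hF, norm_fix hF]
      · exact neg_ne_zero.2 (pow_ne_zero _ hx0)
    rw [Finset.sum_congr rfl h3, Finset.sum_const, smul_eq_mul, Finset.card_erase_of_mem (Finset.mem_univ _),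
      Finset.card_univ, hF]

/-- The counts, in a form valid over `ℤ`. -/
theorem counts (hF : Fintype.card F = q ^ 2) (n : ℕ) :
    (q : ℤ) * (Nat.card {v : Fin n → F // Cfsg.hermForm n F q v v = 1} : ℤ) =
        (q : ℤ) ^ n * ((q : ℤ) ^ n - (-1) ^ n) ∧
      (q : ℤ) * (Nat.card {v : Fin n → F // Cfsg.hermForm n F q v v = 0} : ℤ) =
        (q : ℤ) ^ (2 * n) + (-1) ^ n * ((q : ℤ) ^ (n + 1) - (q : ℤ) ^ n) := by
  obtain ⟨φ, hφ, hφφ, hq2⟩ := frob_setup hF
  have hq1 : ((q - 1 : ℕ) : ℤ) = (q : ℤ) - 1 := by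
    rw [Nat.cast_sub (by omega)]; simp
  have hq21 : ((q ^ 2 - 1 : ℕ) : ℤ) = (q : ℤ) ^ 2 - 1 := by
    rw [Nat.cast_sub (Nat.one_le_pow _ _ (by omega))]; simp
  have hqne : (q : ℤ) - 1 ≠ 0 := by
    have : (2 : ℤ) ≤ q := by exact_mod_cast hq2
    omega
  induction n with
  | zero =>
    have hz : Nat.card {v : Fin 0 → F // Cfsg.hermForm 0 F q v v = 0} = 1 := by
      have h := total hF 0
      have hu : Nat.card {v : Fin 0 → F // Cfsg.hermForm 0 F q v v = 1} = 0 := by
        have : IsEmpty {v : Fin 0 → F // Cfsg.hermForm 0 F q v v = 1} := by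
          constructor
          rintro ⟨v, hv⟩
          simp [Cfsg.hermForm] at hv
        exact Nat.card_of_isEmpty
      rw [hu] at h
      simpa using h
    have hu : Nat.card {v : Fin 0 → F // Cfsg.hermForm 0 F q v v = 1} = 0 := by
      have : IsEmpty {v : Fin 0 → F // Cfsg.hermForm 0 F q v v = 1} := by
        constructor
        rintro ⟨v, hv⟩
        simp [Cfsg.hermForm] at hv
      exact Nat.card_of_isEmpty
    rw [hz, hu]
    constructor
    · simp
    · simp
  | succ n ih =>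
    obtain ⟨ihu, ihz⟩ := ih
    have hr := rec0 hF n
    have ht := total hF (n + 1)
    have hr' : (Nat.card {v : Fin (n + 1) → F // Cfsg.hermForm (n + 1) F q v v = 0} : ℤ) =
        (Nat.card {v : Fin n → F // Cfsg.hermForm n F q v v = 0} : ℤ) +
          ((q : ℤ) ^ 2 - 1) * (Nat.card {v : Fin n → F // Cfsg.hermForm n F q v v = 1} : ℤ) := by
      rw [hr]; push_cast; rw [hq21]
    have ht' : (Nat.card {v : Fin (n + 1) → F // Cfsg.hermForm (n + 1) F q v v = 0} : ℤ) +
        ((q : ℤ) - 1) * (Nat.card {v : Fin (n + 1) → F // Cfsg.hermForm (n + 1) F q v v = 1} : ℤ) =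
          (q : ℤ) ^ (2 * (n + 1)) := by
      rw [← hq1]; exact_mod_cast ht
    have hz' : (q : ℤ) * (Nat.card {v : Fin (n + 1) → F // Cfsg.hermForm (n + 1) F q v v = 0} : ℤ) =
        (q : ℤ) ^ (2 * (n + 1)) + (-1) ^ (n + 1) * ((q : ℤ) ^ (n + 1 + 1) - (q : ℤ) ^ (n + 1)) := by
      rw [hr', mul_add, ihz]
      have : (q : ℤ) * (((q : ℤ) ^ 2 - 1) *
          (Nat.card {v : Fin n → F // Cfsg.hermForm n F q v v = 1} : ℤ)) =
          ((q : ℤ) ^ 2 - 1) * ((q : ℤ) ^ n * ((q : ℤ) ^ n - (-1) ^ n)) := by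
        rw [← ihu]; ring
      rw [this]
      ring
    refine ⟨?_, hz'⟩
    have h4 : ((q : ℤ) - 1) * ((q : ℤ) *
        (Nat.card {v : Fin (n + 1) → F // Cfsg.hermForm (n + 1) F q v v = 1} : ℤ)) =
        ((q : ℤ) - 1) * ((q : ℤ) ^ (n + 1) * ((q : ℤ) ^ (n + 1) - (-1) ^ (n + 1))) := by
      have : ((q : ℤ) - 1) * ((q : ℤ) *
          (Nat.card {v : Fin (n + 1) → F // Cfsg.hermForm (n + 1) F q v v = 1} : ℤ)) =
          (q : ℤ) * (q : ℤ) ^ (2 * (n + 1)) -
          (q : ℤ) * (Nat.card {v : Fin (n + 1) → F // Cfsg.hermForm (n + 1) F q v v = 0} : ℤ) := by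
        rw [← ht']; ring
      rw [this, hz']
      ring
    exact mul_left_cancel₀ hqne h4

end Cfsg.Agent.Lib.Helper5.Herm
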