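import Mathlib

set_option autoImplicit false

namespace Cfsg.Agent.Lib.Helper5

theorem mem_sylow_smul_iff {G : Type*} [Group G] (P : Sylow 2 G) (h x : G) :
    x ∈ ((h • P : Sylow 2 G) : Subgroup G) ↔ h⁻¹ * x * h ∈ (P : Subgroup G) := by
  rw [Sylow.coe_subgroup_smul, Subgroup.mem_pointwise_smul_iff_inv_smul_mem]
  have : (MulAut.conj h)⁻¹ • x = h⁻¹ * x * h := by
    rw [MulAut.smul_def, MulAut.conj_inv_apply]
  rw [this]

theorem isPGroup_two_sup_of_commute {G : Type*} [Group G] (u z : G) (hu : orderOf u = 2)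
    (hz : orderOf z = 2) (hc : Commute u z) :
    IsPGroup 2 (Subgroup.zpowers u ⊔ Subgroup.zpowers z : Subgroup G) := by
  haveI : Fact (Nat.Prime 2) := ⟨Nat.prime_two⟩
  have h1 : IsPGroup 2 (Subgroup.zpowers u) :=
    IsPGroup.of_card (n := 1) (by rw [Nat.card_zpowers, hu, pow_one])
  have h2 : IsPGroup 2 (Subgroup.zpowers z) :=
    IsPGroup.of_card (n := 1) (by rw [Nat.card_zpowers, hz, pow_one])
  apply IsPGroup.to_sup_of_normal_right' h1 h2
  intro a ha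
  rw [Subgroup.mem_zpowers_iff] at ha
  obtain ⟨k, rfl⟩ := ha
  rw [Subgroup.mem_normalizer_iff]
  intro b
  have key : ∀ j : ℤ, u ^ k * z ^ j * (u ^ k)⁻¹ = z ^ j := by
    intro j
    have := (hc.zpow_zpow k j)
    rw [this.eq, mul_inv_cancel_right]
  constructor
  · intro hb
    obtain ⟨j, rfl⟩ := Subgroup.mem_zpowers_iff.mp hb
    rw [key]; exact hb
  · intro hb
    obtain ⟨j, hj⟩ := Subgroup.mem_zpowers_iff.mp hb
    have : b = z ^ j := by
      have hcomm : Commute (u ^ k) (z ^ j) := hc.zpow_zpow k j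
      have e : b = (u ^ k)⁻¹ * (u ^ k * b * (u ^ k)⁻¹) * u ^ k := by group
      rw [e, ← hj, mul_assoc, ← hcomm.eq, inv_mul_cancel_left]
    rw [this]
    exact Subgroup.zpow_mem_zpowers _ _

/-- an isolated involution of a Sylow 2-subgroup is isolated in every 2-subgroup containing it -/
theorem isolated_in_pgroup {G : Type*} [Group G] [Finite G] (P : Sylow 2 G) (u : G)
    (hiso : ∀ g : G, g * u * g⁻¹ ∈ P → g * u * g⁻¹ = u) (Q : Subgroup G) (hQ : IsPGroup 2 Q)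
    (huQ : u ∈ Q) (g : G) (hg : g * u * g⁻¹ ∈ Q) : g * u * g⁻¹ = u := by
  haveI : Fact (Nat.Prime 2) := ⟨Nat.prime_two⟩
  obtain ⟨P', hP'⟩ := hQ.exists_le_sylow
  obtain ⟨h, rfl⟩ := MulAction.exists_smul_eq G P P'
  have h1 := (mem_sylow_smul_iff P h u).mp (hP' huQ)
  have h2 := (mem_sylow_smul_iff P h _).mp (hP' hg)
  have e1 : h⁻¹ * u * h = h⁻¹ * u * (h⁻¹)⁻¹ := by group
  rw [e1] at h1
  have h1' := hiso _ h1
  have e2 : h⁻¹ * (g * u * g⁻¹) * h = (h⁻¹ * g) * u * (h⁻¹ * g)⁻¹ := by group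
  rw [e2] at h2
  have h2' := hiso _ h2
  have e3 : g * u * g⁻¹ = h * ((h⁻¹ * g) * u * (h⁻¹ * g)⁻¹) * h⁻¹ := by group
  have e4 : u = h * (h⁻¹ * u * (h⁻¹)⁻¹) * h⁻¹ := by group
  rw [e3, h2']
  conv_rhs => rw [e4, h1']

/-- Klein four-group argument -/
theorem isolated_klein {G : Type*} [Group G] [Finite G] (P : Sylow 2 G) (u : G)
    (hu : orderOf u = 2)
    (hiso : ∀ g : G, g * u * g⁻¹ ∈ P → g * u * g⁻¹ = u) (z : G) (hz : orderOf z = 2)
    (hc : Commute u z) (g : G) : g * u * g⁻¹ ≠ u * z := by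
  intro hg
  have hQ := isPGroup_two_sup_of_commute u z hu hz hc
  have huQ : u ∈ Subgroup.zpowers u ⊔ Subgroup.zpowers z :=
    (le_sup_left : Subgroup.zpowers u ≤ _) (Subgroup.mem_zpowers u)
  have hzQ : z ∈ Subgroup.zpowers u ⊔ Subgroup.zpowers z :=
    (le_sup_right : Subgroup.zpowers z ≤ _) (Subgroup.mem_zpowers z)
  have h := isolated_in_pgroup P u hiso _ hQ huQ g (by rw [hg]; exact Subgroup.mul_mem _ huQ hzQ)
  rw [hg] at h
  have hz1 : z = 1 := by
    have : u * z = u * 1 := by rw [mul_one]; exact h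
    exact mul_left_cancel this
  rw [hz1, orderOf_one] at hz
  omega

end Cfsg.Agent.Lib.Helper5
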