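import Mathlib
import Cfsg.Agent.Lib.Helper5.Invol
import Cfsg.Agent.Lib.Helper5.Isol

set_option autoImplicit false

namespace Cfsg.Agent.Lib.Helper5

/-- 2-elements of the normalizer of a Sylow 2-subgroup lie in it -/
theorem mem_sylow_of_mem_normalizer {G : Type*} [Group G] (P : Sylow 2 G) (g : G)
    (hg : g ∈ Subgroup.normalizer ((P : Subgroup G) : Set G)) (k : ℕ) (hk : g ^ (2 ^ k) = 1) :
    g ∈ (P : Subgroup G) := by
  haveI : Fact (Nat.Prime 2) := ⟨Nat.prime_two⟩
  have hzp : IsPGroup 2 (Subgroup.zpowers g) := by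
    have hd : orderOf g ∣ 2 ^ k := orderOf_dvd_of_pow_eq_one hk
    obtain ⟨j, _, hj⟩ := (Nat.dvd_prime_pow Nat.prime_two).mp hd
    exact IsPGroup.of_card (n := j) (by rw [Nat.card_zpowers, hj])
  have hle : Subgroup.zpowers g ≤ Subgroup.normalizer ((P : Subgroup G) : Set G) := by
    rw [Subgroup.zpowers_le]; exact hg
  have hQ := IsPGroup.to_sup_of_normal_right' hzp P.isPGroup' hle
  have heq := P.is_maximal' hQ le_sup_right
  rw [← heq]
  exact (le_sup_left : Subgroup.zpowers g ≤ _) (Subgroup.mem_zpowers g)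

theorem exists_conj_mem_sylow {G : Type*} [Group G] [Finite G] (P : Sylow 2 G) (t : G)
    (ht : orderOf t = 2) : ∃ g : G, g * t * g⁻¹ ∈ (P : Subgroup G) := by
  haveI : Fact (Nat.Prime 2) := ⟨Nat.prime_two⟩
  have hp : IsPGroup 2 (Subgroup.zpowers t) :=
    IsPGroup.of_card (n := 1) (by rw [Nat.card_zpowers, ht, pow_one])
  obtain ⟨Q, hQ⟩ := hp.exists_le_sylow
  obtain ⟨g, rfl⟩ := MulAction.exists_smul_eq G P Q
  have := (mem_sylow_smul_iff P g t).mp (hQ (Subgroup.mem_zpowers t))
  exact ⟨g⁻¹, by rw [inv_inv]; exact this⟩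

section
variable {G : Type*} [Group G] [Finite G] (P : Sylow 2 G) (hP : IsKleinFour (P : Subgroup G))
include hP

theorem klein_sq (x : G) (hx : x ∈ (P : Subgroup G)) : x * x = 1 := by
  have := Monoid.pow_exponent_eq_one (⟨x, hx⟩ : (P : Subgroup G))
  rw [hP.exponent_two] at this
  have h2 := congrArg Subtype.val this
  simpa [pow_two] using h2

theorem klein_comm (x y : G) (hx : x ∈ (P : Subgroup G)) (hy : y ∈ (P : Subgroup G)) :
    x * y = y * x := by
  have h1 := klein_sq P hP x hx
  have h2 := klein_sq P hP y hy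
  have h3 := klein_sq P hP (x * y) (Subgroup.mul_mem _ hx hy)
  have hxi : x⁻¹ = x := inv_eq_of_mul_eq_one_left h1
  have hyi : y⁻¹ = y := inv_eq_of_mul_eq_one_left h2
  have hxyi : (x * y)⁻¹ = x * y := inv_eq_of_mul_eq_one_left h3
  calc x * y = (x * y)⁻¹ := hxyi.symm
    _ = y⁻¹ * x⁻¹ := mul_inv_rev x y
    _ = y * x := by rw [hxi, hyi]

theorem klein_order (x : G) (hx : x ∈ (P : Subgroup G)) (h1 : x ≠ 1) : orderOf x = 2 :=
  order_two_of_sq h1 (klein_sq P hP x hx)

theorem klein_third (x y w : G) (hx : x ∈ (P : Subgroup G)) (hy : y ∈ (P : Subgroup G))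
    (hw : w ∈ (P : Subgroup G)) (hx1 : x ≠ 1) (hy1 : y ≠ 1) (hxy : x ≠ y) :
    w = 1 ∨ w = x ∨ w = y ∨ w = x * y := by
  classical
  by_contra hcon
  simp only [not_or] at hcon
  obtain ⟨hw1, hwx, hwy, hwxy⟩ := hcon
  haveI : Fintype (P : Subgroup G) := Fintype.ofFinite _
  have hcard : Fintype.card (P : Subgroup G) = 4 := by
    rw [← Nat.card_eq_fintype_card]; exact hP.card_four
  have hxx := klein_sq P hP x hx
  have hyy := klein_sq P hP y hy
  let s : Finset (P : Subgroup G) :=
    {⟨w, hw⟩, 1, ⟨x, hx⟩, ⟨y, hy⟩, ⟨x * y, Subgroup.mul_mem _ hx hy⟩}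
  have hs : s.card = 5 := by
    have e1 : x * y ≠ 1 := by
      intro h
      apply hxy
      have : y = x⁻¹ := eq_inv_of_mul_eq_one_right h
      rw [this, inv_eq_of_mul_eq_one_left hxx]
    have e2 : x * y ≠ x := by
      intro h
      apply hy1
      have : x * y = x * 1 := by rw [mul_one]; exact h
      exact mul_left_cancel this
    have e3 : x * y ≠ y := by
      intro h
      apply hx1
      have : x * y = 1 * y := by rw [one_mul]; exact h
      exact mul_right_cancel this
    rw [Finset.card_insert_of_notMem, Finset.card_insert_of_notMem, Finset.card_insert_of_notMem,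
      Finset.card_insert_of_notMem, Finset.card_singleton]
    · simp only [Finset.mem_singleton, Subtype.mk.injEq]
      exact fun h => e3 h.symm
    · simp only [Finset.mem_insert, Finset.mem_singleton, Subtype.mk.injEq, not_or]
      exact ⟨hxy, fun h => e2 h.symm⟩
    · simp only [Finset.mem_insert, Finset.mem_singleton, not_or]
      refine ⟨fun h => hx1 (congrArg Subtype.val h).symm, fun h => hy1 (congrArg Subtype.val h).symm,
        fun h => e1 (congrArg Subtype.val h).symm⟩
    · simp only [Finset.mem_insert, Finset.mem_singleton, not_or]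
      refine ⟨fun h => hw1 (congrArg Subtype.val h), fun h => hwx (congrArg Subtype.val h),
        fun h => hwy (congrArg Subtype.val h), fun h => hwxy (congrArg Subtype.val h)⟩
  have := Finset.card_le_univ s
  omega

theorem klein_exists : ∃ x y : G, x ∈ (P : Subgroup G) ∧ y ∈ (P : Subgroup G) ∧ x ≠ 1 ∧ y ≠ 1 ∧
    x ≠ y := by
  classical
  haveI : Fintype (P : Subgroup G) := Fintype.ofFinite _
  have hcard : Fintype.card (P : Subgroup G) = 4 := by
    rw [← Nat.card_eq_fintype_card]; exact hP.card_four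
  have h1 : ∃ a : (P : Subgroup G), a ≠ 1 := by
    by_contra hcon
    have : ∀ a : (P : Subgroup G), a = 1 := by
      intro a
      by_contra h
      exact hcon ⟨a, h⟩
    have : Fintype.card (P : Subgroup G) ≤ 1 :=
      Fintype.card_le_one_iff.mpr (fun a b => by rw [this a, this b])
    omega
  obtain ⟨a, ha⟩ := h1
  have h2 : ∃ b : (P : Subgroup G), b ≠ 1 ∧ b ≠ a := by
    by_contra hcon
    have hall : ∀ b : (P : Subgroup G), b ∈ ({1, a} : Finset (P : Subgroup G)) := by
      intro b
      by_contra h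
      simp only [Finset.mem_insert, Finset.mem_singleton, not_or] at h
      exact hcon ⟨b, h.1, h.2⟩
    have : Fintype.card (P : Subgroup G) ≤ ({1, a} : Finset (P : Subgroup G)).card := by
      rw [← Finset.card_univ]
      exact Finset.card_le_card (fun b _ => hall b)
    have h3 : ({1, a} : Finset (P : Subgroup G)).card ≤ 2 := Finset.card_insert_le _ _
    omega
  obtain ⟨b, hb1, hba⟩ := h2
  exact ⟨a.1, b.1, a.2, b.2, fun h => ha (Subtype.ext h), fun h => hb1 (Subtype.ext h),
    fun h => hba (Subtype.ext h.symm)⟩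

theorem klein_fusion (x y : G) (hx : x ∈ (P : Subgroup G)) (hy : y ∈ (P : Subgroup G))
    (hy1 : y ≠ 1) (hxy : x ≠ y) (hc : IsConj x y) : IsConj x (x * y) := by
  haveI : Fact (Nat.Prime 2) := ⟨Nat.prime_two⟩
  haveI : IsMulCommutative (P : Subgroup G) :=
    ⟨⟨fun a b => Subtype.ext (klein_comm P hP a.1 b.1 a.2 b.2)⟩⟩
  have hx1 : x ≠ 1 := by
    rintro rfl
    obtain ⟨g, hg⟩ := isConj_iff.mp hc
    apply hy1
    rw [← hg]; group
  obtain ⟨g, hg⟩ := isConj_iff.mp hc
  obtain ⟨n, hn, hn'⟩ := P.conj_eq_normalizer_conj_of_mem x g⁻¹ hx (by rw [inv_inv, hg]; exact hy)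
  rw [inv_inv, hg] at hn'
  have hmem : n⁻¹ * y * n ∈ (P : Subgroup G) := (Subgroup.mem_normalizer_iff''.mp hn y).mp hy
  by_cases hcase : n⁻¹ * y * n = x
  · exfalso
    obtain ⟨k, r, hr, hkr⟩ := Nat.exists_eq_two_pow_mul_odd (orderOf_pos n).ne'
    have hnr : (n ^ r) ^ (2 ^ k) = 1 := by
      rw [← pow_mul, mul_comm, ← hkr]; exact pow_orderOf_eq_one n
    have hnrN : n ^ r ∈ Subgroup.normalizer ((P : Subgroup G) : Set G) := Subgroup.pow_mem _ hn r
    have hnrP := mem_sylow_of_mem_normalizer P (n ^ r) hnrN k hnr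
    have hcomm := klein_comm P hP (n ^ r) x hnrP hx
    have hev : ∀ j : ℕ, (n ^ (2 * j))⁻¹ * x * n ^ (2 * j) = x := by
      intro j
      induction j with
      | zero => simp
      | succ j ih =>
        have e : n ^ (2 * (j + 1)) = n ^ (2 * j) * n * n := by
          rw [mul_add, mul_one, pow_add, pow_two, mul_assoc]
        rw [e]
        calc (n ^ (2 * j) * n * n)⁻¹ * x * (n ^ (2 * j) * n * n)
            = n⁻¹ * (n⁻¹ * ((n ^ (2 * j))⁻¹ * x * n ^ (2 * j)) * n) * n := by group
          _ = n⁻¹ * (n⁻¹ * x * n) * n := by rw [ih]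
          _ = n⁻¹ * y * n := by rw [← hn']
          _ = x := hcase
    obtain ⟨j, hj⟩ := hr
    have hodd : (n ^ r)⁻¹ * x * n ^ r = y := by
      rw [hj, pow_succ]
      calc (n ^ (2 * j) * n)⁻¹ * x * (n ^ (2 * j) * n)
          = n⁻¹ * ((n ^ (2 * j))⁻¹ * x * n ^ (2 * j)) * n := by group
        _ = n⁻¹ * x * n := by rw [hev j]
        _ = y := hn'.symm
    apply hxy
    rw [← hodd, mul_assoc, ← hcomm, inv_mul_cancel_left]
  · have h1 : n⁻¹ * y * n ≠ 1 := by
      intro h
      apply hy1
      have e : y = n * (n⁻¹ * y * n) * n⁻¹ := by group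
      rw [e, h]; group
    have h2 : n⁻¹ * y * n ≠ y := by
      intro h
      apply hxy
      have e3 : n⁻¹ * y * n = n⁻¹ * x * n := h.trans hn'
      exact (mul_left_cancel (mul_right_cancel e3)).symm
    have h3 : n⁻¹ * y * n = x * y := by
      rcases klein_third P hP x y _ hx hy hmem hx1 hy1 hxy with h | h | h | h
      · exact absurd h h1
      · exact absurd h hcase
      · exact absurd h h2
      · exact h
    exact hc.trans (isConj_iff.mpr ⟨n⁻¹, by rw [inv_inv]; exact h3⟩)

/-- the trichotomy: the number of classes of involutions -/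
theorem klein_classes : ∃ x y : G, x ∈ (P : Subgroup G) ∧ y ∈ (P : Subgroup G) ∧ x ≠ 1 ∧ y ≠ 1 ∧
    x ≠ y ∧
    ((IsConj x y ∧ Nat.card {C : ConjClasses G // ∃ t : G, orderOf t = 2 ∧ ConjClasses.mk t = C} = 1)
     ∨ (¬ IsConj x y ∧ ¬ IsConj x (x * y) ∧ ¬ IsConj y (x * y) ∧
        Nat.card {C : ConjClasses G // ∃ t : G, orderOf t = 2 ∧ ConjClasses.mk t = C} = 3)) := by
  classical
  obtain ⟨x, y, hx, hy, hx1, hy1, hxy⟩ := klein_exists P hP
  refine ⟨x, y, hx, hy, hx1, hy1, hxy, ?_⟩
  have hxx := klein_sq P hP x hx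
  have hyy := klein_sq P hP y hy
  have hxyP : x * y ∈ (P : Subgroup G) := Subgroup.mul_mem _ hx hy
  have e1 : x * y ≠ 1 := by
    intro h
    apply hxy
    have : y = x⁻¹ := eq_inv_of_mul_eq_one_right h
    rw [this, inv_eq_of_mul_eq_one_left hxx]
  have e2 : x ≠ x * y := by
    intro h
    apply hy1
    have : x * y = x * 1 := by rw [mul_one]; exact h.symm
    exact mul_left_cancel this
  have e3 : y ≠ x * y := by
    intro h
    apply hx1
    have : x * y = 1 * y := by rw [one_mul]; exact h.symm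
    exact mul_right_cancel this
  have hcardS : Nat.card {C : ConjClasses G // ∃ t : G, orderOf t = 2 ∧ ConjClasses.mk t = C} =
      ({ConjClasses.mk x, ConjClasses.mk y, ConjClasses.mk (x * y)} : Finset (ConjClasses G)).card := by
    apply Nat.subtype_card
    intro C
    simp only [Finset.mem_insert, Finset.mem_singleton]
    constructor
    · rintro (h | h | h)
      · exact ⟨x, klein_order P hP x hx hx1, h.symm⟩
      · exact ⟨y, klein_order P hP y hy hy1, h.symm⟩
      · exact ⟨x * y, klein_order P hP _ hxyP e1, h.symm⟩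
    · rintro ⟨t, ht, rfl⟩
      obtain ⟨g, hg⟩ := exists_conj_mem_sylow P t ht
      have hc : IsConj t (g * t * g⁻¹) := isConj_iff.mpr ⟨g, rfl⟩
      have hne : g * t * g⁻¹ ≠ 1 := by
        intro h
        apply ne_one_of_order_two ht
        have e : t = g⁻¹ * (g * t * g⁻¹) * g := by group
        rw [e, h]; group
      rcases klein_third P hP x y _ hx hy hg hx1 hy1 hxy with h | h | h | h
      · exact absurd h hne
      · left; rw [ConjClasses.mk_eq_mk_iff_isConj, ← h]; exact hc
      · right; left; rw [ConjClasses.mk_eq_mk_iff_isConj, ← h]; exact hc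
      · right; right; rw [ConjClasses.mk_eq_mk_iff_isConj, ← h]; exact hc
  have hA : IsConj x y → IsConj x (x * y) := fun h => klein_fusion P hP x y hx hy hy1 hxy h
  have hB : IsConj x (x * y) → IsConj x y := by
    intro h
    have := klein_fusion P hP x (x * y) hx hxyP e1 e2 h
    rw [← mul_assoc, hxx, one_mul] at this
    exact this
  have hC : IsConj y (x * y) → IsConj x y := by
    intro h
    have := klein_fusion P hP y (x * y) hy hxyP e1 e3 h
    rw [klein_comm P hP x y hx hy, ← mul_assoc, hyy, one_mul] at this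
    exact this.symm
  by_cases h1 : IsConj x y
  · left
    refine ⟨h1, ?_⟩
    rw [hcardS]
    have h2 := hA h1
    have ea : ConjClasses.mk y = ConjClasses.mk x := by
      rw [ConjClasses.mk_eq_mk_iff_isConj]; exact h1.symm
    have eb : ConjClasses.mk (x * y) = ConjClasses.mk x := by
      rw [ConjClasses.mk_eq_mk_iff_isConj]; exact h2.symm
    rw [ea, eb]
    simp
  · right
    have h2 : ¬ IsConj x (x * y) := fun h => h1 (hB h)
    have h3 : ¬ IsConj y (x * y) := fun h => h1 (hC h)
    refine ⟨h1, h2, h3, ?_⟩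
    rw [hcardS]
    rw [Finset.card_insert_of_notMem, Finset.card_insert_of_notMem, Finset.card_singleton]
    · simp only [Finset.mem_singleton]
      rw [ConjClasses.mk_eq_mk_iff_isConj]; exact h3
    · simp only [Finset.mem_insert, Finset.mem_singleton, not_or]
      rw [ConjClasses.mk_eq_mk_iff_isConj, ConjClasses.mk_eq_mk_iff_isConj]
      exact ⟨h1, h2⟩

end

end Cfsg.Agent.Lib.Helper5
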