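import Mathlib

set_option autoImplicit false

namespace Cfsg.Agent.Lib.Helper5.Planes

variable {F V : Type*} [Field F] [Fintype F] [AddCommGroup V] [Module F V] [Finite V]

/-- The number of ordered bases of a plane. -/
theorem card_pairs (W : Submodule F V) (hW : Module.finrank F W = 2) :
    Nat.card {p : W × W // p.1 ≠ 0 ∧ ∀ t : F, t • p.1 ≠ p.2} =
      (Fintype.card F ^ 2 - 1) * (Fintype.card F ^ 2 - Fintype.card F) := by
  classical
  have : Fintype W := Fintype.ofFinite W
  have hcW : Fintype.card W = Fintype.card F ^ 2 := by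
    rw [← hW]; exact Module.card_eq_pow_finrank
  have e : {p : W × W // p.1 ≠ 0 ∧ ∀ t : F, t • p.1 ≠ p.2} ≃
      (Σ x : {x : W // x ≠ 0}, {y : W // ∀ t : F, t • x.1 ≠ y}) :=
    { toFun := fun p => ⟨⟨p.1.1, p.2.1⟩, ⟨p.1.2, p.2.2⟩⟩
      invFun := fun s => ⟨(s.1.1, s.2.1), s.1.2, s.2.2⟩
      left_inv := fun p => rfl
      right_inv := fun s => rfl }
  rw [Nat.card_congr e, Nat.card_sigma]
  have h2 : ∀ x : {x : W // x ≠ 0}, Nat.card {y : W // ∀ t : F, t • x.1 ≠ y} =
      Fintype.card F ^ 2 - Fintype.card F := by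
    intro x
    have e2 : {y : W // ∀ t : F, t • x.1 ≠ y} ≃
        {y : W // ¬ (y ∈ Set.range (fun t : F => t • x.1))} :=
      Equiv.subtypeEquivRight (fun y => by simp)
    rw [Nat.card_congr e2, Nat.card_eq_fintype_card, Fintype.card_subtype_compl, hcW]
    congr 1
    exact Set.card_range_of_injective (smul_left_injective F x.2)
  simp_rw [h2]
  rw [Finset.sum_const, Finset.card_univ, smul_eq_mul]
  congr 1
  rw [Fintype.card_subtype_compl, hcW, Fintype.card_subtype_eq]

/-- Counting planes with a property through their ordered bases. -/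
theorem card_planes (P : Submodule F V → Prop) :
    Nat.card {p : V × V // p.1 ≠ 0 ∧ (∀ t : F, t • p.1 ≠ p.2) ∧
        P (Submodule.span F {p.1, p.2})} =
      Nat.card {W : Submodule F V // Module.finrank F W = 2 ∧ P W} *
        ((Fintype.card F ^ 2 - 1) * (Fintype.card F ^ 2 - Fintype.card F)) := by
  classical
  have hfr : ∀ p : V × V, p.1 ≠ 0 → (∀ t : F, t • p.1 ≠ p.2) →
      Module.finrank F (Submodule.span F ({p.1, p.2} : Set V)) = 2 := by
    intro p h1 h2
    have hli : LinearIndependent F ![p.1, p.2] := (LinearIndependent.pair_iff' h1).2 h2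
    have := finrank_span_eq_card hli
    rw [Fintype.card_fin] at this
    have hr : Set.range ![p.1, p.2] = {p.1, p.2} := by
      ext z
      simp only [Set.mem_range, Set.mem_insert_iff, Set.mem_singleton_iff]
      constructor
      · rintro ⟨i, rfl⟩
        fin_cases i
        · left; rfl
        · right; rfl
      · rintro (rfl | rfl)
        · exact ⟨0, rfl⟩
        · exact ⟨1, rfl⟩
    rw [hr] at this
    exact this
  let π : {p : V × V // p.1 ≠ 0 ∧ (∀ t : F, t • p.1 ≠ p.2) ∧ P (Submodule.span F {p.1, p.2})} →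
      {W : Submodule F V // Module.finrank F W = 2 ∧ P W} :=
    fun p => ⟨Submodule.span F {p.1.1, p.1.2}, hfr p.1 p.2.1 p.2.2.1, p.2.2.2⟩
  have hfib : ∀ W : {W : Submodule F V // Module.finrank F W = 2 ∧ P W},
      Nat.card {p // π p = W} =
        (Fintype.card F ^ 2 - 1) * (Fintype.card F ^ 2 - Fintype.card F) := by
    intro W
    rw [← card_pairs W.1 W.2.1]
    have hsp : ∀ p : {p // π p = W}, Submodule.span F {p.1.1.1, p.1.1.2} = W.1 :=
      fun p => congrArg Subtype.val p.2
    refine Nat.card_congr ?_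
    exact
      { toFun := fun p => ⟨(⟨p.1.1.1, by
            rw [← hsp p]; exact Submodule.subset_span (by simp)⟩,
          ⟨p.1.1.2, by rw [← hsp p]; exact Submodule.subset_span (by simp)⟩),
          fun h => p.1.2.1 (congrArg Subtype.val h),
          fun t h => p.1.2.2.1 t (congrArg Subtype.val h)⟩
        invFun := fun s =>
          have h1 : (s.1.1 : V) ≠ 0 := fun h => s.2.1 (Subtype.ext h)
          have h2 : ∀ t : F, t • (s.1.1 : V) ≠ (s.1.2 : V) := fun t h => s.2.2 t (Subtype.ext h)
          have h3 : Submodule.span F {(s.1.1 : V), (s.1.2 : V)} = W.1 := by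
            apply Submodule.eq_of_le_of_finrank_eq
            · rw [Submodule.span_le]
              rintro z (rfl | rfl)
              · exact s.1.1.2
              · exact s.1.2.2
            · rw [hfr (s.1.1.1, s.1.2.1) h1 h2, W.2.1]
          ⟨⟨(s.1.1.1, s.1.2.1), h1, h2, by rw [h3]; exact W.2.2⟩, Subtype.ext h3⟩
        left_inv := fun p => rfl
        right_inv := fun s => rfl }
  have : Finite (Submodule F V) :=
    Finite.of_injective (fun W : Submodule F V => (W : Set V)) SetLike.coe_injective
  have : Fintype {W : Submodule F V // Module.finrank F W = 2 ∧ P W} := Fintype.ofFinite _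
  rw [← Nat.card_congr (Equiv.sigmaFiberEquiv π), Nat.card_sigma]
  simp_rw [hfib]
  rw [Finset.sum_const, Finset.card_univ, smul_eq_mul, Nat.card_eq_fintype_card]

end Cfsg.Agent.Lib.Helper5.Planes
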