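import Mathlib

set_option autoImplicit false

namespace Cfsg.Agent.Lib.Helper5

open MvPolynomial in
/-- A ternary quadratic form over a finite field has a non-trivial zero (Chevalley–Warning). -/
theorem cw3 {F : Type*} [Field F] [Finite F] (A B K D E G : F) :
    ∃ a b c : F, (a ≠ 0 ∨ b ≠ 0 ∨ c ≠ 0) ∧
      A * a * a + B * b * b + K * c * c + D * a * b + E * a * c + G * b * c = 0 := by
  classical
  have := Fintype.ofFinite F
  obtain ⟨p, hp⟩ := CharP.exists F
  have := hp
  have hpp : p.Prime := CharP.char_is_prime F p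
  obtain ⟨P, hP⟩ : ∃ P : MvPolynomial (Fin 3) F, P = C A * X 0 * X 0 + C B * X 1 * X 1 +
      C K * X 2 * X 2 + C D * X 0 * X 1 + C E * X 0 * X 2 + C G * X 1 * X 2 := ⟨_, rfl⟩
  have hm : ∀ (a : F) (i j : Fin 3),
      (C a * X i * X j : MvPolynomial (Fin 3) F).totalDegree ≤ 2 := by
    intro a i j
    refine (totalDegree_mul _ _).trans ?_
    have h1 : (C a * X i : MvPolynomial (Fin 3) F).totalDegree ≤ 1 := by
      refine (totalDegree_mul _ _).trans ?_
      rw [totalDegree_C, totalDegree_X]
    rw [totalDegree_X]; omega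
  have hdeg : P.totalDegree < Fintype.card (Fin 3) := by
    have : P.totalDegree ≤ 2 := by
      rw [hP]
      refine (totalDegree_add _ _).trans (max_le ?_ (hm _ _ _))
      refine (totalDegree_add _ _).trans (max_le ?_ (hm _ _ _))
      refine (totalDegree_add _ _).trans (max_le ?_ (hm _ _ _))
      refine (totalDegree_add _ _).trans (max_le ?_ (hm _ _ _))
      exact (totalDegree_add _ _).trans (max_le (hm _ _ _) (hm _ _ _))
    simp only [Fintype.card_fin]; omega
  have hdvd := char_dvd_card_solutions p hdeg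
  rw [← Nat.card_eq_fintype_card] at hdvd
  have h0 : eval (0 : Fin 3 → F) P = 0 := by rw [hP]; simp
  have hcard : 1 < Nat.card { x : Fin 3 → F // eval x P = 0 } := by
    have : Nonempty { x : Fin 3 → F // eval x P = 0 } := ⟨⟨0, h0⟩⟩
    have hpos : 0 < Nat.card { x : Fin 3 → F // eval x P = 0 } := Nat.card_pos
    have := Nat.le_of_dvd hpos hdvd
    have := hpp.two_le
    omega
  have : Nontrivial { x : Fin 3 → F // eval x P = 0 } := Finite.one_lt_card_iff_nontrivial.1 hcard
  obtain ⟨⟨x, hx0⟩, hx⟩ := exists_ne (⟨0, h0⟩ : { x : Fin 3 → F // eval x P = 0 })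
  refine ⟨x 0, x 1, x 2, ?_, ?_⟩
  · by_contra hcon
    push Not at hcon
    apply hx
    apply Subtype.ext
    funext i
    fin_cases i
    · exact hcon.1
    · exact hcon.2.1
    · exact hcon.2.2
  · rw [hP] at hx0
    simpa using hx0

section
variable {F V : Type*} [Field F] [AddCommGroup V] [Module F V]

theorem Q_add3 (Q : QuadraticForm F V) (x y : V) :
    Q (x + y) = Q x + Q y + QuadraticMap.polar Q x y := by
  unfold QuadraticMap.polar; ring

/-- A quadratic form on a space of dimension at least three over a finite field has a non-zero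
singular vector. -/
theorem exists_sing3 [Finite F] (Q : QuadraticForm F V) (h3 : 3 ≤ Module.finrank F V) :
    ∃ v : V, v ≠ 0 ∧ Q v = 0 := by
  obtain ⟨f, hf⟩ := exists_linearIndependent_of_le_finrank h3
  obtain ⟨a, b, c, hne, h0⟩ := cw3 (Q (f 0)) (Q (f 1)) (Q (f 2)) (QuadraticMap.polar Q (f 0) (f 1))
    (QuadraticMap.polar Q (f 0) (f 2)) (QuadraticMap.polar Q (f 1) (f 2))
  refine ⟨a • f 0 + b • f 1 + c • f 2, ?_, ?_⟩
  · intro hz
    have := Fintype.linearIndependent_iff.1 hf ![a, b, c] (by simpa [Fin.sum_univ_three] using hz)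
    have h0' := this 0
    have h1' := this 1
    have h2' := this 2
    simp at h0' h1' h2'
    rcases hne with h | h | h
    · exact h h0'
    · exact h h1'
    · exact h h2'
  · rw [Q_add3, Q_add3, QuadraticMap.polar_add_left, QuadraticMap.map_smul, QuadraticMap.map_smul,
      QuadraticMap.map_smul, QuadraticMap.polar_smul_left, QuadraticMap.polar_smul_right,
      QuadraticMap.polar_smul_left, QuadraticMap.polar_smul_right, QuadraticMap.polar_smul_left,
      QuadraticMap.polar_smul_right]
    simp only [smul_eq_mul]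
    linear_combination h0

/-- A non-zero singular vector of a non-degenerate quadratic space lies in a hyperbolic pair. -/
theorem hyp_pair (Q : QuadraticForm F V) (hQ : (QuadraticMap.polarBilin Q).Nondegenerate)
    (e : V) (he : e ≠ 0) (hQe : Q e = 0) :
    ∃ f : V, Q f = 0 ∧ QuadraticMap.polar Q e f = 1 := by
  obtain ⟨f₀, hf₀⟩ : ∃ f₀, QuadraticMap.polar Q e f₀ ≠ 0 := by
    by_contra hcon
    push Not at hcon
    exact he (hQ.1 e hcon)
  obtain ⟨f₁, hf₁⟩ : ∃ f₁, QuadraticMap.polar Q e f₁ = 1 :=
    ⟨(QuadraticMap.polar Q e f₀)⁻¹ • f₀, by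
      rw [QuadraticMap.polar_smul_right, smul_eq_mul, inv_mul_cancel₀ hf₀]⟩
  have hee : QuadraticMap.polar Q e e = 0 := by rw [QuadraticMap.polar_self, hQe, smul_zero]
  refine ⟨f₁ + (-Q f₁) • e, ?_, ?_⟩
  · rw [Q_add3, QuadraticMap.map_smul, QuadraticMap.polar_smul_right,
      QuadraticMap.polar_comm (⇑Q) f₁ e, hf₁, hQe]
    simp
  · rw [QuadraticMap.polar_add_right, QuadraticMap.polar_smul_right, hee, hf₁]; simp

/-- The orthogonal complement of a hyperbolic pair. -/
theorem peel_pair [FiniteDimensional F V] (Q : QuadraticForm F V)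
    (hQ : (QuadraticMap.polarBilin Q).Nondegenerate) (e f : V) (hQe : Q e = 0) (hQf : Q f = 0)
    (hef : QuadraticMap.polar Q e f = 1) :
    ∃ W : Submodule F V, (∀ w ∈ W, QuadraticMap.polar Q e w = 0 ∧ QuadraticMap.polar Q f w = 0) ∧
      Module.finrank F W + 2 = Module.finrank F V ∧
      (QuadraticMap.polarBilin (Q.comp W.subtype)).Nondegenerate := by
  obtain ⟨T, hT⟩ : ∃ T : V →ₗ[F] F × F,
      ∀ v, T v = (QuadraticMap.polar Q e v, QuadraticMap.polar Q f v) :=
    ⟨(QuadraticMap.polarBilin Q e).prod (QuadraticMap.polarBilin Q f), fun v => rfl⟩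
  have hee : QuadraticMap.polar Q e e = 0 := by rw [QuadraticMap.polar_self, hQe, smul_zero]
  have hff : QuadraticMap.polar Q f f = 0 := by rw [QuadraticMap.polar_self, hQf, smul_zero]
  have hfe : QuadraticMap.polar Q f e = 1 := by rw [QuadraticMap.polar_comm (⇑Q) f e]; exact hef
  have hker : ∀ w, w ∈ LinearMap.ker T ↔
      QuadraticMap.polar Q e w = 0 ∧ QuadraticMap.polar Q f w = 0 := by
    intro w
    rw [LinearMap.mem_ker, hT, Prod.mk_eq_zero]
  have hsurj : LinearMap.range T = ⊤ := by
    rw [LinearMap.range_eq_top]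
    rintro ⟨a, b⟩
    refine ⟨a • f + b • e, ?_⟩
    rw [hT, QuadraticMap.polar_add_right, QuadraticMap.polar_smul_right,
      QuadraticMap.polar_smul_right, QuadraticMap.polar_add_right, QuadraticMap.polar_smul_right,
      QuadraticMap.polar_smul_right, hef, hee, hff, hfe]
    simp
  have hdec : ∀ v, v - QuadraticMap.polar Q f v • e - QuadraticMap.polar Q e v • f ∈
      LinearMap.ker T := by
    intro v
    rw [hker]
    constructor
    · rw [QuadraticMap.polar_sub_right, QuadraticMap.polar_sub_right,
        QuadraticMap.polar_smul_right, QuadraticMap.polar_smul_right, hee, hef]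
      simp
    · rw [QuadraticMap.polar_sub_right, QuadraticMap.polar_sub_right,
        QuadraticMap.polar_smul_right, QuadraticMap.polar_smul_right, hfe, hff]
      simp
  refine ⟨LinearMap.ker T, fun w hw => (hker w).1 hw, ?_, ?_⟩
  · have := LinearMap.finrank_range_add_finrank_ker T
    rw [hsurj, finrank_top, Module.finrank_prod, Module.finrank_self] at this
    omega
  · have hsep : ∀ w : LinearMap.ker T,
        (∀ w' : LinearMap.ker T, QuadraticMap.polar Q (w : V) (w' : V) = 0) → w = 0 := by
      intro w hw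
      apply Subtype.ext
      apply hQ.1 (w : V)
      intro v
      show QuadraticMap.polar Q (w : V) v = 0
      have hwk := (hker _).1 w.2
      have e1 := hw ⟨_, hdec v⟩
      have e2 : v = (v - QuadraticMap.polar Q f v • e - QuadraticMap.polar Q e v • f) +
          QuadraticMap.polar Q f v • e + QuadraticMap.polar Q e v • f := by abel
      have e3 : QuadraticMap.polar Q (w : V) e = 0 := by
        rw [QuadraticMap.polar_comm (⇑Q) (w : V) e]; exact hwk.1
      have e4 : QuadraticMap.polar Q (w : V) f = 0 := by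
        rw [QuadraticMap.polar_comm (⇑Q) (w : V) f]; exact hwk.2
      rw [e2, QuadraticMap.polar_add_right, QuadraticMap.polar_add_right,
        QuadraticMap.polar_smul_right, QuadraticMap.polar_smul_right, e3, e4]
      simpa using e1
    refine ⟨fun w hw => hsep w (fun w' => hw w'), fun w hw => hsep w (fun w' => ?_)⟩
    rw [QuadraticMap.polar_comm (⇑Q) (w : V) (w' : V)]; exact hw w'

/-- A family with a "dual" family for the polar form is linearly independent. -/
theorem li_of_dual {ι : Type*} [Fintype ι] (Q : QuadraticForm F V) (b d : ι → V)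
    (h : ∀ i j, i ≠ j → QuadraticMap.polar Q (b i) (d j) = 0)
    (h' : ∀ i, QuadraticMap.polar Q (b i) (d i) ≠ 0) : LinearIndependent F b := by
  classical
  rw [Fintype.linearIndependent_iff]
  intro g hg j
  have h1 : (QuadraticMap.polarBilin Q).flip (d j) (∑ i, g i • b i) = 0 := by
    rw [hg, map_zero]
  have h2 : (QuadraticMap.polarBilin Q).flip (d j) (∑ i, g i • b i) =
      ∑ i, g i * QuadraticMap.polar Q (b i) (d j) := by
    rw [map_sum]
    refine Finset.sum_congr rfl fun i _ => ?_
    rw [map_smul]; rfl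
  rw [h2, Finset.sum_eq_single j (fun i _ hij => by rw [h i j hij, mul_zero])
    (fun hj => absurd (Finset.mem_univ j) hj)] at h1
  exact (mul_eq_zero.1 h1).resolve_right (h' j)

end

end Cfsg.Agent.Lib.Helper5
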